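import Cfsg.Agent.Comp.L37.Mat
import Cfsg.Agent.S0243

set_option autoImplicit false
set_option maxRecDepth 100000

namespace Cfsg.Agent.Comp.L37
open Cfsg.Agent.Comp

instance : Fact (Nat.Prime 7) := ⟨by norm_num⟩

theorem hdet : ∀ x < 8, ∃ g, (Matrix.SpecialLinearGroup.coeMonoidHom : Matrix.SpecialLinearGroup (Fin 3) (ZMod 7) →* _) g = Mm x :=
  fun x hx => ⟨⟨Mm x, (by rw [Mfast]; decide +kernel : ∀ x < 8, (Mm x).det = 1) x hx⟩, rfl⟩

/-- the letters in the special linear group -/
noncomputable def t : ℕ → Matrix.SpecialLinearGroup (Fin 3) (ZMod 7) := liftS Matrix.SpecialLinearGroup.coeMonoidHom Mm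

theorem t_val {x : ℕ} (hx : x < 8) : (t x : Matrix (Fin 3) (Fin 3) (ZMod 7)) = Mm x := liftS_val (hdet x hx)

theorem card_psl : Nat.card (Matrix.ProjectiveSpecialLinearGroup (Fin 3) (ZMod 7)) = 1876896 := by
  have := S0243.result (F := ZMod 7) (q := 7) (ZMod.card 7) 3 (by norm_num)
  rw [show (∏ i : Fin 3, (7 ^ 3 - 7 ^ (i : ℕ))) = 33784128 by decide, show Nat.gcd 3 (7 - 1) = 3 by decide] at this
  omega

theorem iso : Nonempty (G ≃* Matrix.ProjectiveSpecialLinearGroup (Fin 3) (ZMod 7)) := by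
  have := simple
  have := card.1
  have h1 : Sat t RZ := sat_liftS Matrix.SpecialLinearGroup.coeMonoidHom_injective hdet (by decide +kernel) satM
  refine ⟨(pres.equiv_of_card hR (fun x => QuotientGroup.mk' (Subgroup.center _) (t x))
    ((h1.map _).drop (L := 7) (M := 8) (fun x h2 h3 => ?_) (by decide +kernel) (by decide +kernel))
    (x := 0) (by norm_num) (fun e => ?_) (card.2.1.trans card_psl.symm)).choose⟩
  · rw [show x = 7 by omega]
    exact (QuotientGroup.eq_one_iff _).mpr (Matrix.SpecialLinearGroup.mem_center_iff.mpr ⟨2, by decide, by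
      rw [t_val (by norm_num), Mfast]; decide +kernel⟩)
  · have h2 := congrArg Subtype.val (Subgroup.mem_center_iff.mp ((QuotientGroup.eq_one_iff _).mp e) (t 4))
    rw [Matrix.SpecialLinearGroup.coe_mul, Matrix.SpecialLinearGroup.coe_mul, t_val (by norm_num), t_val (by norm_num), Mfast] at h2
    exact absurd h2 (by decide +kernel)

end Cfsg.Agent.Comp.L37
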