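import Cfsg.Agent.Comp.L37.Main
import Cfsg.Agent.Comp.Mat3
import Cfsg.Agent.Comp.Mat2

set_option autoImplicit false
set_option maxRecDepth 100000

namespace Cfsg.Agent.Comp.L37
open Cfsg.Agent.Comp

def mI : List Nat := [nat_lit 1, nat_lit 128, nat_lit 16384]

def mC : List Nat := [nat_lit 1, nat_lit 128, nat_lit 16384]

def mO : List Nat := [nat_lit 1, nat_lit 128, nat_lit 16384]

def men : Fin 3 → ℕ := Fin.val

theorem menum : Enum (nat_lit 3) men := by decide +kernel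

def mbs : List (Fin 3 → ZMod 7) := sbs (nat_lit 3) (nat_lit 3) men 1

theorem mms : MS (nat_lit 7) (nat_lit 7) (nat_lit 127) (nat_lit 3) mI mC mO mbs men (1 : ZMod 7) :=
  menum.ms (len := (nat_lit 3)) (a := 1) (b := 0) (by decide +kernel) (by decide +kernel) (by decide +kernel)

theorem mstd : Std (nat_lit 3) (nat_lit 3) mbs men (1 : ZMod 7) := menum.std (by decide) _

def M : List (List Nat) :=
  [[nat_lit 6, nat_lit 768, nat_lit 16384],
   [nat_lit 1, nat_lit 512, nat_lit 32768],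
   [nat_lit 1, nat_lit 256, nat_lit 65536],
   [nat_lit 1, nat_lit 768, nat_lit 98304],
   [nat_lit 6, nat_lit 768, nat_lit 16641],
   [nat_lit 3, nat_lit 32768, nat_lit 128],
   [nat_lit 65536, nat_lit 640, nat_lit 1],
   [nat_lit 2, nat_lit 256, nat_lit 32768]]

theorem Mok : MOK (nat_lit 7) (nat_lit 7) mbs men M := mms.mok (by decide +kernel)

/-- the matrices of the letters -/
def Mm : ℕ → Matrix (Fin 3) (Fin 3) (ZMod 7) := mat (nat_lit 7) mbs men M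

theorem Mfast : Mm = fmat (nat_lit 7) (nat_lit 3) (nat_lit 3) (1 : ZMod 7) men M := mstd.mat_eq _ _

def RZ : List (List Nat) :=
  [[0, 0],
   [1, 2],
   [2, 1],
   [3, 3],
   [4, 4],
   [5, 5, 7, 7],
   [6, 6, 7],
   [1, 1, 1],
   [0, 1, 0, 2],
   [0, 3, 0, 3],
   [1, 3, 2, 3],
   [0, 1, 4, 1, 0, 4, 1, 0, 4],
   [0, 2, 3, 4, 0, 4, 3, 2, 4, 2, 4],
   [1, 5, 1, 5, 7, 7],
   [0, 3, 5, 0, 5, 7, 7],
   [3, 4, 3, 5, 4, 3, 5, 4, 5],
   [0, 6, 3, 6, 7],
   [1, 6, 1, 6],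
   [5, 6, 5, 6, 5, 6],
   [1, 4, 5, 1, 6, 5, 4, 5, 6, 5, 7, 7]]

theorem satM : Sat Mm RZ := mms.sat Mok (by decide +kernel)


end Cfsg.Agent.Comp.L37
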